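import Mathlib
import Cfsg.Agent.Lib.Helper70.HH.S3786Defs2
import Cfsg.Agent.Lib.Helper32.TBCore
import Cfsg.Agent.Lib.Helper87.PGroupFrattini

/-!
# S3786, package (H1) `LT` (helper57)

The local theorem on a subspace `U`: transfer of the abstract local theorem `LTabs` to the
faithful quotient of `⟨Q, x, z⟩` acting on `U`.
-/

set_option autoImplicit false

namespace Cfsg.Agent.Lib.Helper57.HH86

open Module Cfsg.Agent.Lib.Helper70.HH89 Cfsg.Agent.Lib.Helper70.HH86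

universe u v w

/-- Package (H1) of S3786. -/
theorem lt (hA : LTabs.{u, v, w}) (hF : LemFpfQuot.{u}) (hC : LemCenSub.{u, v, w}) :
    Cfsg.Agent.Lib.Helper70.HH86.LT.{u, v, w} := by
  intro p q _ _ F _ _ _ H _ _ V _ _ _ ρ Q U x z k hqp hQ hcent hU0 hUQ hsc hxQ hxU hk hxk hnz
    hzQ hzU hzf hzp hzx
  classical
  -- the group generated by `Q`, `x`, `z`
  obtain ⟨Γ0, hΓ0⟩ : ∃ Γ0 : Subgroup H, Γ0 = Q ⊔ Subgroup.zpowers x ⊔ Subgroup.zpowers z :=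
    ⟨_, rfl⟩
  have hQΓ : Q ≤ Γ0 := by rw [hΓ0]; exact le_sup_of_le_left le_sup_left
  have hxΓ : x ∈ Γ0 := by
    rw [hΓ0]
    exact (le_sup_of_le_left le_sup_right : Subgroup.zpowers x ≤ _) (Subgroup.mem_zpowers x)
  have hzΓ : z ∈ Γ0 := by
    rw [hΓ0]
    exact (le_sup_right : Subgroup.zpowers z ≤ _) (Subgroup.mem_zpowers z)
  have hstab : Γ0 ≤ Cfsg.Agent.Lib.Helper32.stabSub ρ U := by
    rw [hΓ0]
    refine sup_le (sup_le ?_ ?_) ?_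
    · intro a ha
      exact Cfsg.Agent.Lib.Helper32.mem_stabSub_of_le ρ (hUQ a ha)
    · rw [Subgroup.zpowers_le]
      exact Cfsg.Agent.Lib.Helper32.mem_stabSub_of_le ρ hxU
    · rw [Subgroup.zpowers_le]
      exact Cfsg.Agent.Lib.Helper32.mem_stabSub_of_le ρ hzU
  have hinv : ∀ g ∈ Γ0, ∀ w ∈ U, ρ g w ∈ U := by
    intro g hg w hw
    have h1 := hstab hg
    rw [Cfsg.Agent.Lib.Helper32.mem_stabSub] at h1
    rw [← h1]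
    exact Submodule.mem_map_of_mem hw
  have hnorm : Γ0 ≤ Subgroup.normalizer (Q : Set H) := by
    rw [hΓ0]
    refine sup_le (sup_le Subgroup.le_normalizer ?_) ?_
    · rw [Subgroup.zpowers_le]
      exact Subgroup.mem_normalizer_fintype hxQ
    · rw [Subgroup.zpowers_le]
      exact Subgroup.mem_normalizer_fintype hzQ
  have hconj : ∀ g ∈ Γ0, ∀ a ∈ Q, g * a * g⁻¹ ∈ Q := fun g hg a ha =>
    (Subgroup.mem_normalizer_iff.1 (hnorm hg) a).1 ha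
  -- the representation on `U`
  let ρU : Representation F ↥Γ0 ↥U :=
    { toFun := fun g => (ρ (g : H)).restrict (fun w hw => hinv g g.2 w hw)
      map_one' := by
        apply LinearMap.ext
        intro w
        apply Subtype.ext
        simp
      map_mul' := by
        intro a b
        apply LinearMap.ext
        intro w
        apply Subtype.ext
        simp }
  have hρU : ∀ (g : ↥Γ0) (w : ↥U), ((ρU g w : ↥U) : V) = ρ (g : H) (w : V) := fun g w => rfl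
  obtain ⟨π, ρq, hπ, hρqinj, hρq⟩ := Cfsg.Agent.Lib.Helper32.exists_faithful_quot ρU
  haveI hQ'n : (Q.subgroupOf Γ0).Normal :=
    (Subgroup.normal_subgroupOf_iff_le_normalizer hQΓ).2 hnorm
  haveI hQbn : ((Q.subgroupOf Γ0).map π).Normal := hQ'n.map _ hπ
  have hQb : IsPGroup q ((Q.subgroupOf Γ0).map π) := (hQ.comap_subtype (K := Γ0)).map _
  -- the centre of the image of `Q`
  have hzqiff : ∀ g : ↥Γ0, (g : H) ∈ Q →
      (π g ∈ zq ((Q.subgroupOf Γ0).map π) ↔ CenOn ρ Q U (g : H)) := by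
    intro g hg
    constructor
    · intro h
      refine ⟨hg, ?_⟩
      intro b hb w hw
      have h3 : π ⟨b, hQΓ hb⟩ * π g = π g * π ⟨b, hQΓ hb⟩ :=
        Subgroup.mem_centralizer_iff.1 h.2 _ ⟨⟨b, hQΓ hb⟩, Subgroup.mem_subgroupOf.2 hb, rfl⟩
      have h4 := congrArg ρq h3
      rw [← map_mul, ← map_mul, hρq, hρq] at h4
      have h5 := congrArg (fun f : Module.End F ↥U => ((f ⟨w, hw⟩ : ↥U) : V)) h4
      exact h5.symm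
    · intro h
      refine Subgroup.mem_inf.2 ⟨⟨g, Subgroup.mem_subgroupOf.2 hg, rfl⟩, ?_⟩
      rw [Subgroup.mem_centralizer_iff]
      rintro _ ⟨b, hb, rfl⟩
      apply hρqinj
      rw [← map_mul, ← map_mul, hρq, hρq]
      apply LinearMap.ext
      intro w
      apply Subtype.ext
      exact (h.2 (b : H) (Subgroup.mem_subgroupOf.1 hb) w w.2).symm
  have hfratQ : frat Q ≤ Q := Subgroup.map_subtype_le _
  have hfratCen : ∀ c ∈ frat Q, CenOn ρ Q U c := by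
    intro c hc
    exact ⟨hfratQ hc, fun b hb w _ => by rw [hcent c hc b hb]⟩
  have hcommfrat : ∀ a ∈ Q, ∀ b ∈ Q, a * b * a⁻¹ * b⁻¹ ∈ frat Q := by
    intro a ha b hb
    exact Subgroup.mem_map_of_mem Q.subtype
      (Cfsg.Agent.Lib.Helper87.comm_mem_frattini hQ (⟨a, ha⟩ : ↥Q) ⟨b, hb⟩)
  -- the subgroup `Cen(U)`
  obtain ⟨N, hN⟩ := hC ρ Q U hUQ
  have hNQ : N ≤ Q := fun a ha => ((hN a).1 ha).1
  have hfratN : frat Q ≤ N := fun c hc => (hN c).2 (hfratCen c hc)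
  have hzinvΓ : z⁻¹ ∈ Γ0 := Γ0.inv_mem hzΓ
  have hzN : ∀ a ∈ N, z * a * z⁻¹ ∈ N := by
    intro a ha
    have haC := (hN a).1 ha
    rw [hN]
    refine ⟨hzQ a haC.1, ?_⟩
    intro b hb w hw
    obtain ⟨b', hb'def⟩ : ∃ b' : H, b' = z⁻¹ * b * z := ⟨_, rfl⟩
    have hb' : b' ∈ Q := by
      have := hconj z⁻¹ hzinvΓ b hb
      rw [inv_inv] at this
      rw [hb'def]
      exact this
    have hw' : ρ z⁻¹ w ∈ U := hinv _ hzinvΓ w hw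
    have key := haC.2 b' hb' _ hw'
    have e1 : z * a * z⁻¹ * b = z * (a * b') * z⁻¹ := by rw [hb'def]; group
    have e2 : b * (z * a * z⁻¹) = z * (b' * a) * z⁻¹ := by rw [hb'def]; group
    calc ρ (z * a * z⁻¹ * b) w = ρ z (ρ (a * b') (ρ z⁻¹ w)) := by
          rw [e1]; simp only [map_mul, Module.End.mul_apply]
      _ = ρ z (ρ (b' * a) (ρ z⁻¹ w)) := by rw [key]
      _ = ρ (b * (z * a * z⁻¹)) w := by
          rw [e2]; simp only [map_mul, Module.End.mul_apply]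
  have hfpf := hF (p := p) (q := q) Q N z hqp hQ hzQ hfratN hNQ hzN hzf hzp
  -- powers on the restriction
  have hpow : ∀ (m : ℕ) (w : ↥U),
      ((((ρU ⟨x, hxΓ⟩ - 1) ^ m) w : ↥U) : V) = ((ρ x - 1) ^ m) (w : V) := by
    intro m
    induction m with
    | zero => intro w; simp
    | succ m ih =>
      intro w
      rw [pow_succ, Module.End.mul_apply, ih, pow_succ, Module.End.mul_apply]
      rfl
  haveI : Nontrivial ↥U := Submodule.nontrivial_iff_ne_bot.2 hU0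
  have ctx : AbsCtx p q ρq ((Q.subgroupOf Γ0).map π) (π ⟨x, hxΓ⟩) (π ⟨z, hzΓ⟩) k := by
    refine
      { hqp := hqp
        hQ := hQb
        hinj := hρqinj
        hzsc := ?_
        hcl2 := ?_
        hk := hk
        hxk := ?_
        hnz := ?_
        hzf := ?_
        hzp := ?_
        hzx := ?_ }
    · intro c hc
      obtain ⟨a, ha, rfl⟩ := hc.1
      have haQ : (a : H) ∈ Q := Subgroup.mem_subgroupOf.1 ha
      obtain ⟨s, hs⟩ := hsc _ ((hzqiff a haQ).1 hc)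
      refine ⟨s, ?_⟩
      rw [hρq]
      apply LinearMap.ext
      intro w
      apply Subtype.ext
      exact hs w w.2
    · rintro _ ⟨a, ha, rfl⟩ _ ⟨b, hb, rfl⟩
      have haQ : (a : H) ∈ Q := Subgroup.mem_subgroupOf.1 ha
      have hbQ : (b : H) ∈ Q := Subgroup.mem_subgroupOf.1 hb
      have hmem : ((a * b * a⁻¹ * b⁻¹ : ↥Γ0) : H) ∈ Q := hfratQ (hcommfrat _ haQ _ hbQ)
      rw [← map_inv, ← map_inv, ← map_mul, ← map_mul, ← map_mul, hzqiff _ hmem]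
      exact hfratCen _ (hcommfrat _ haQ _ hbQ)
    · rw [← map_pow]
      have h1 : (⟨x, hxΓ⟩ : ↥Γ0) ^ p ^ k = 1 := Subtype.ext hxk
      rw [h1, map_one]
    · rw [hρq]
      apply LinearMap.ext
      intro w
      apply Subtype.ext
      rw [hpow]
      exact hnz w w.2
    · rintro _ ⟨a, ha, rfl⟩ h
      have haQ : (a : H) ∈ Q := Subgroup.mem_subgroupOf.1 ha
      have hmem : (((⟨z, hzΓ⟩ : ↥Γ0) * a * (⟨z, hzΓ⟩ : ↥Γ0)⁻¹ * a⁻¹ : ↥Γ0) : H) ∈ Q :=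
        Q.mul_mem (hzQ _ haQ) (Q.inv_mem haQ)
      rw [← map_inv, ← map_inv, ← map_mul, ← map_mul, ← map_mul, hzqiff _ hmem] at h
      rw [hzqiff a haQ]
      exact (hN _).1 (hfpf _ haQ ((hN _).2 h))
    · rintro _ ⟨a, ha, rfl⟩
      have haQ : (a : H) ∈ Q := Subgroup.mem_subgroupOf.1 ha
      have h1 := hzp _ haQ
      have hmem : (((⟨z, hzΓ⟩ : ↥Γ0) ^ p * a * ((⟨z, hzΓ⟩ : ↥Γ0) ^ p)⁻¹ * a⁻¹ : ↥Γ0) : H) ∈ Q :=
        hfratQ h1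
      rw [← map_pow, ← map_inv, ← map_inv, ← map_mul, ← map_mul, ← map_mul, hzqiff _ hmem]
      exact hfratCen _ h1
    · rintro _ ⟨a, ha, rfl⟩
      have haQ : (a : H) ∈ Q := Subgroup.mem_subgroupOf.1 ha
      have h1 := hzx _ haQ
      have hmem : ((((⟨z, hzΓ⟩ : ↥Γ0) * ⟨x, hxΓ⟩ * (⟨z, hzΓ⟩ : ↥Γ0)⁻¹ * (⟨x, hxΓ⟩ : ↥Γ0)⁻¹) * a *
          ((⟨z, hzΓ⟩ : ↥Γ0) * ⟨x, hxΓ⟩ * (⟨z, hzΓ⟩ : ↥Γ0)⁻¹ * (⟨x, hxΓ⟩ : ↥Γ0)⁻¹)⁻¹ * a⁻¹ : ↥Γ0) : H)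
          ∈ Q := hfratQ h1
      have e : π ⟨z, hzΓ⟩ * π ⟨x, hxΓ⟩ * (π ⟨z, hzΓ⟩)⁻¹ * (π ⟨x, hxΓ⟩)⁻¹ * π a *
          (π ⟨z, hzΓ⟩ * π ⟨x, hxΓ⟩ * (π ⟨z, hzΓ⟩)⁻¹ * (π ⟨x, hxΓ⟩)⁻¹)⁻¹ * (π a)⁻¹ =
          π (((⟨z, hzΓ⟩ : ↥Γ0) * ⟨x, hxΓ⟩ * (⟨z, hzΓ⟩ : ↥Γ0)⁻¹ * (⟨x, hxΓ⟩ : ↥Γ0)⁻¹) * a *
          ((⟨z, hzΓ⟩ : ↥Γ0) * ⟨x, hxΓ⟩ * (⟨z, hzΓ⟩ : ↥Γ0)⁻¹ * (⟨x, hxΓ⟩ : ↥Γ0)⁻¹)⁻¹ * a⁻¹) := by
        simp only [map_mul, map_inv]
      rw [e, hzqiff _ hmem]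
      exact hfratCen _ h1
  obtain ⟨i, hi⟩ := hA (p := p) (q := q) (F := F) ρq ((Q.subgroupOf Γ0).map π) (π ⟨x, hxΓ⟩)
    (π ⟨z, hzΓ⟩) k ctx
  refine ⟨i, fun a ha => ?_⟩
  have h1 := hi (π ⟨a, hQΓ ha⟩) ⟨⟨a, hQΓ ha⟩, Subgroup.mem_subgroupOf.2 ha, rfl⟩
  have h2 : rel (π ⟨x, hxΓ⟩ ^ p ^ (k - 1)) (π ⟨z, hzΓ⟩ ^ i) (π ⟨a, hQΓ ha⟩) =
      π (rel ((⟨x, hxΓ⟩ : ↥Γ0) ^ p ^ (k - 1)) ((⟨z, hzΓ⟩ : ↥Γ0) ^ i) ⟨a, hQΓ ha⟩) := by
    simp only [rel, map_mul, map_inv, map_pow]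
  have hcoe : ((rel ((⟨x, hxΓ⟩ : ↥Γ0) ^ p ^ (k - 1)) ((⟨z, hzΓ⟩ : ↥Γ0) ^ i) ⟨a, hQΓ ha⟩ : ↥Γ0) : H)
      = rel (x ^ p ^ (k - 1)) (z ^ i) a := rfl
  have hyΓ : x ^ p ^ (k - 1) ∈ Γ0 := Γ0.pow_mem hxΓ _
  have huΓ : z ^ i ∈ Γ0 := Γ0.pow_mem hzΓ _
  have hc : x ^ p ^ (k - 1) * a * (x ^ p ^ (k - 1))⁻¹ * a⁻¹ ∈ Q :=
    Q.mul_mem (hconj _ hyΓ a ha) (Q.inv_mem ha)
  have hrelQ : rel (x ^ p ^ (k - 1)) (z ^ i) a ∈ Q :=
    Q.mul_mem (hconj _ hyΓ _ hc) (Q.inv_mem (hconj _ huΓ _ hc))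
  rw [h2, hzqiff _ (by rw [hcoe]; exact hrelQ), hcoe] at h1
  exact h1

end Cfsg.Agent.Lib.Helper57.HH86
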