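import Mathlib
import Cfsg.Agent.Lib.Helper70.HH.S3786Defs
import Cfsg.Agent.Lib.Helper32.PL1Frat
import Cfsg.Agent.Lib.Helper32.TBInd
import Cfsg.Agent.Lib.Helper50.HH.S3789Key
import Cfsg.Agent.Lib.Helper63.FrattiniAction
import Cfsg.Agent.Lib.Helper63.HallHigman
import Cfsg.Agent.Lib.Helper69.PSolvable

/-!
# S3786, packages (L1) `LinNZ` and (L2) `UpperContra` (helper57)

* `exists_frattini_lin`: the linearization of the Frattini quotient of a normal `p`-subgroup `R`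
  of `G` as a `ZMod p`-module `V` with a class map `cls : R → V` and the conjugation action
  `ρ₀ : G →* End V`;
* `norm_formula`: `(u * g) ^ m = P * g ^ m` with `cls P = ∑_{i < m} (ρ₀ g) ^ i (cls u)`;
* `linNZ`, `upperContra`: the packages.
-/

set_option autoImplicit false

namespace Cfsg.Agent.Lib.Helper57.HH86

open Cfsg Cfsg.Agent.Lib.Helper70.HH86

universe u

/-- Linearization of the Frattini quotient of a normal `p`-subgroup. -/
theorem exists_frattini_lin {p : ℕ} [Fact p.Prime] {G : Type u} [Group G] [Finite G]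
    (R : Subgroup G) [hRn : R.Normal] (hRp : IsPGroup p R) :
    ∃ (V : Type u) (_ : AddCommGroup V) (_ : Module (ZMod p) V) (_ : Finite V)
      (ρ₀ : G →* Module.End (ZMod p) V) (cls : ↥R → V),
      Function.Surjective cls ∧ cls 1 = 0 ∧
      (∀ a b : ↥R, cls (a * b) = cls a + cls b) ∧
      (∀ (g : G) (r : ↥R), ρ₀ g (cls r) = cls (MulAut.conjNormal g r)) ∧
      (∀ g : G, (∀ k ∈ R, g * k * g⁻¹ * k⁻¹ ∈ (frattini ↥R).map R.subtype) ↔ ρ₀ g = 1) ∧
      (∀ r ∈ R, ρ₀ r = 1) := by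
  classical
  have hp : p.Prime := Fact.out
  have hne : NeZero p := ⟨hp.ne_zero⟩
  letI cg : CommGroup (↥R ⧸ frattini ↥R) := Cfsg.Agent.Lib.Helper32.fratCommGroup hRp
  have hexpV : ∀ v : Additive (↥R ⧸ frattini ↥R), p • v = 0 := by
    intro v
    show Additive.ofMul ((Additive.toMul v) ^ p) = 0
    rw [Cfsg.Agent.Lib.Helper32.frat_pow hRp]
    rfl
  letI hmod : Module (ZMod p) (Additive (↥R ⧸ frattini ↥R)) :=
    AddCommGroup.zmodModule (n := p) hexpV
  let act : G →* MulAut (↥R ⧸ frattini ↥R) :=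
    (Cfsg.Agent.Lib.Helper50.fr_autQuot (frattini ↥R)).comp (MulAut.conjNormal (H := R))
  let ρ₀ : G →* Module.End (ZMod p) (Additive (↥R ⧸ frattini ↥R)) :=
    (Cfsg.Agent.Lib.Helper32.mulAutToEnd p (↥R ⧸ frattini ↥R)).comp act
  have hρ₀one : ∀ g : G, (∀ k ∈ R, g * k * g⁻¹ * k⁻¹ ∈ (frattini ↥R).map R.subtype) ↔
      ρ₀ g = 1 := by
    intro g
    rw [← Cfsg.Agent.Lib.Helper50.fr_mem_ker_iff]
    constructor
    · intro h
      show Cfsg.Agent.Lib.Helper32.mulAutToEnd p (↥R ⧸ frattini ↥R) (act g) = 1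
      have h' : act g = 1 := h
      rw [h', map_one]
    · intro h
      exact Cfsg.Agent.Lib.Helper32.mulAutToEnd_eq_one p _ _ h
  refine ⟨Additive (↥R ⧸ frattini ↥R), inferInstance, hmod, inferInstance, ρ₀,
    fun r => Additive.ofMul (QuotientGroup.mk r), ?_, rfl, fun a b => rfl, fun g r => rfl,
    hρ₀one, ?_⟩
  · intro v
    obtain ⟨r, hr⟩ := QuotientGroup.mk_surjective (Additive.toMul v)
    exact ⟨r, by show Additive.ofMul (QuotientGroup.mk r) = v; rw [hr]; rfl⟩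
  · intro r hr
    rw [← hρ₀one]
    intro k hk
    have h1 := Cfsg.Agent.Lib.Helper87.comm_mem_frattini hRp (⟨r, hr⟩ : ↥R) ⟨k, hk⟩
    have h2 := Subgroup.mem_map_of_mem R.subtype h1
    exact h2

/-- The norm formula. -/
theorem norm_formula {p : ℕ} {G : Type*} [Group G] (R : Subgroup G) [hRn : R.Normal]
    {V : Type*} [AddCommGroup V] [Module (ZMod p) V] (ρ₀ : G →* Module.End (ZMod p) V)
    (cls : ↥R → V) (h1 : cls 1 = 0) (hmul : ∀ a b : ↥R, cls (a * b) = cls a + cls b)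
    (hconj : ∀ (g : G) (r : ↥R), ρ₀ g (cls r) = cls (MulAut.conjNormal g r))
    (g : G) (u : ↥R) (m : ℕ) :
    ∃ P : ↥R, ((u : G) * g) ^ m = (P : G) * g ^ m ∧
      cls P = ∑ i ∈ Finset.range m, ((ρ₀ g) ^ i) (cls u) := by
  induction m with
  | zero =>
    refine ⟨1, by simp, ?_⟩
    rw [Finset.sum_range_zero, h1]
  | succ m ih =>
    obtain ⟨P, e1, e2⟩ := ih
    refine ⟨P * MulAut.conjNormal (g ^ m) u, ?_, ?_⟩
    · rw [pow_succ, e1, Subgroup.coe_mul, MulAut.conjNormal_apply, pow_succ]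
      group
    · rw [Finset.sum_range_succ, ← e2, ← map_pow, hconj, hmul]

/-- Package (L1) of S3786. -/
theorem linNZ : LinNZ.{u} := by
  intro p _ G _ _ hsol h0
  have hl := Cfsg.Agent.Lib.Helper63.exists_plengthLE_of_isPSolvable hsol
  have hRp : IsPGroup p (Cfsg.pCore p G) := Cfsg.Agent.Lib.Helper63.pCore_isPGroup' p G
  obtain ⟨V, iV, iM, iF, ρ₀, cls, hsurj, h1, hmul, hconj, hone, hR1⟩ :=
    exists_frattini_lin (Cfsg.pCore p G) hRp
  have hker : Cfsg.pCore p G ≤ ρ₀.ker := fun r hr => MonoidHom.mem_ker.2 (hR1 r hr)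
  let ρ : Representation (ZMod p) (G ⧸ Cfsg.pCore p G) V :=
    QuotientGroup.lift (Cfsg.pCore p G) ρ₀ hker
  have hρmk : ∀ g : G, ρ (QuotientGroup.mk g) = ρ₀ g := fun _ => rfl
  have hinj : Function.Injective ρ := by
    rw [injective_iff_map_eq_one]
    intro x hx
    obtain ⟨g, rfl⟩ := QuotientGroup.mk_surjective x
    rw [hρmk, ← hone] at hx
    exact (QuotientGroup.eq_one_iff g).2
      (Cfsg.Agent.Lib.Helper63.mem_pCore_of_trivial_on_frattini h0 hl g hx)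
  refine ⟨V, iV, iM, iF, ρ, hinj, ?_⟩
  intro n hexp g hg
  obtain ⟨k, hk⟩ := hg
  obtain ⟨x, rfl⟩ := QuotientGroup.mk_surjective g
  have hxk : x ^ p ^ k ∈ Cfsg.pCore p G := by
    rw [← QuotientGroup.eq_one_iff]
    exact hk
  have hpel : ∀ y : G, y ^ p ^ k ∈ Cfsg.pCore p G → y ^ p ^ n = 1 := by
    intro y hy
    obtain ⟨j, hj⟩ := hRp ⟨y ^ p ^ k, hy⟩
    apply hexp y ⟨k + j, ?_⟩
    rw [pow_add, pow_mul]
    exact congrArg Subtype.val hj
  have hx : x ^ p ^ n = 1 := hpel x hxk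
  have hux : ∀ u : ↥(Cfsg.pCore p G), ((u : G) * x) ^ p ^ n = 1 := by
    intro u
    apply hpel
    rw [← QuotientGroup.eq_one_iff, QuotientGroup.mk_pow, QuotientGroup.mk_mul,
      (QuotientGroup.eq_one_iff (u : G)).2 u.2, one_mul]
    exact hk
  have hsum : ∑ i ∈ Finset.range (p ^ n), (ρ₀ x) ^ i = 0 := by
    apply LinearMap.ext
    intro v
    obtain ⟨u, rfl⟩ := hsurj v
    obtain ⟨P, hP1, hP2⟩ := norm_formula (Cfsg.pCore p G) ρ₀ cls h1 hmul hconj x u (p ^ n)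
    rw [hux u, hx, mul_one] at hP1
    have hP : P = 1 := Subtype.ext hP1.symm
    rw [LinearMap.sum_apply, ← hP2, hP, h1]
    rfl
  rw [hρmk, ← Cfsg.Agent.Lib.Helper32.geom_sum_end_eq p (ρ₀ x) n]
  exact hsum

/-- Package (L2) of S3786. -/
theorem upperContra (hW : WTB.{u, u, 0}) : UpperContra.{u} := by
  intro p _ G _ _ hp2 hsol h0 h n hn hhn hnot hcomm
  have hp : p.Prime := Fact.out
  have hl := Cfsg.Agent.Lib.Helper63.exists_plengthLE_of_isPSolvable hsol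
  have hRp : IsPGroup p (Cfsg.pCore p G) := Cfsg.Agent.Lib.Helper63.pCore_isPGroup' p G
  obtain ⟨V, iV, iM, iF, ρ₀, cls, hsurj, h1, hmul, hconj, hone, hR1⟩ :=
    exists_frattini_lin (Cfsg.pCore p G) hRp
  have hker : Cfsg.pCore p G ≤ ρ₀.ker := fun r hr => MonoidHom.mem_ker.2 (hR1 r hr)
  let ρ : Representation (ZMod p) (G ⧸ Cfsg.pCore p G) V :=
    QuotientGroup.lift (Cfsg.pCore p G) ρ₀ hker
  have hρmk : ∀ g : G, ρ (QuotientGroup.mk g) = ρ₀ g := fun _ => rfl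
  have hinj : Function.Injective ρ := by
    rw [injective_iff_map_eq_one]
    intro x hx
    obtain ⟨g, rfl⟩ := QuotientGroup.mk_surjective x
    rw [hρmk, ← hone] at hx
    exact (QuotientGroup.eq_one_iff g).2
      (Cfsg.Agent.Lib.Helper63.mem_pCore_of_trivial_on_frattini h0 hl g hx)
  have hsolQ : Cfsg.IsPSolvable p (G ⧸ Cfsg.pCore p G) :=
    Cfsg.Agent.Lib.Helper69.isPSolvable_of_surj p (QuotientGroup.mk' (Cfsg.pCore p G))
      (QuotientGroup.mk'_surjective _) hsol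
  have hcoreQ : Cfsg.pCore p (G ⧸ Cfsg.pCore p G) = ⊥ :=
    Cfsg.Agent.Lib.Helper50.HH89.hh89_pCore_quot_eq_bot p (Cfsg.pCore p G) rfl
  obtain ⟨m, hm⟩ : ∃ m : ℕ, m = p ^ (n - 1) := ⟨_, rfl⟩
  have hmpos : 0 < m := by rw [hm]; exact pow_pos hp.pos _
  have key : (ρ₀ h - 1) ^ (m + (m - 1)) = 0 := by
    apply LinearMap.ext
    intro v
    rcases subsingleton_or_nontrivial V with hV | hV
    · exact Subsingleton.elim _ _
    obtain ⟨u, rfl⟩ := hsurj v
    obtain ⟨P, hP1, hP2⟩ := norm_formula (Cfsg.pCore p G) ρ₀ cls h1 hmul hconj h u m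
    have hc := hcomm u u.2
    rw [← hm, hP1] at hc
    have hc' : h ^ m * (P : G) = (P : G) * h ^ m := by
      apply mul_right_cancel (b := h ^ m)
      rw [mul_assoc]
      exact hc
    have hfix : ρ₀ (h ^ m) (cls P) = cls P := by
      rw [hconj]
      congr 1
      apply Subtype.ext
      rw [MulAut.conjNormal_apply, hc', mul_inv_cancel_right]
    have hpm : (ρ₀ h - 1) ^ m = (ρ₀ h) ^ m - 1 := by
      rw [hm]
      exact Cfsg.Agent.Lib.Helper32.sub_one_pow_char_pow_end p (ρ₀ h) (n - 1)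
    have hgeo : (ρ₀ h - 1) ^ (m - 1) = ∑ i ∈ Finset.range m, (ρ₀ h) ^ i := by
      rw [hm]
      exact (Cfsg.Agent.Lib.Helper32.geom_sum_end_eq p (ρ₀ h) (n - 1)).symm
    rw [pow_add, Module.End.mul_apply, hgeo, LinearMap.sum_apply, ← hP2, hpm,
      LinearMap.sub_apply, ← map_pow, hfix]
    simp
  have hx1 : (QuotientGroup.mk h : G ⧸ Cfsg.pCore p G) ^ p ^ n = 1 := by
    rw [← QuotientGroup.mk_pow, hhn]
    rfl
  have hx2 : (QuotientGroup.mk h : G ⧸ Cfsg.pCore p G) ^ p ^ (n - 1) ≠ 1 := by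
    rw [← QuotientGroup.mk_pow]
    intro hh
    exact hnot ((QuotientGroup.eq_one_iff _).1 hh)
  have hb := hW (p := p) (F := ZMod p) (H := G ⧸ Cfsg.pCore p G) (V := V) ρ
    (QuotientGroup.mk h) n (m + (m - 1)) hsolQ hcoreQ hinj hn hx1 hx2 (by rw [hρmk]; exact key)
  rw [← hm] at hb
  have hp3 : 2 ≤ p - 1 := by
    have := hp.two_le
    omega
  have h2 : m * 2 ≤ m * (p - 1) := Nat.mul_le_mul_left m hp3
  omega

end Cfsg.Agent.Lib.Helper57.HH86
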