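import Mathlib
import Cfsg.Agent.Lib.Helper70.HH.S3786Defs2
import Cfsg.Agent.Lib.Helper32.TBInd
import Cfsg.Agent.Lib.Helper87.PGroupFrattini

/-!
# S3786, package (H2) `LemPieceComm` (helper57)

On every piece `U`, the `p ^ (n - 1)`-th powers of two elements of `T` commute in their action on
`Q` modulo `Cen(U)`.
-/

set_option autoImplicit false

namespace Cfsg.Agent.Lib.Helper57.HH86

open Module Cfsg.Agent.Lib.Helper70.HH89 Cfsg.Agent.Lib.Helper70.HH86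

universe u v w

/-- `Cen(U)` is invariant under conjugation by an element normalizing `Q` and stabilizing `U`. -/
theorem cenOn_conj {F : Type w} [Field F] {H : Type u} [Group H] {V : Type v} [AddCommGroup V]
    [Module F V] (ρ : Representation F H V) (Q : Subgroup H) (U : Submodule F V) (d : H)
    (h1 : ∀ a ∈ Q, d * a * d⁻¹ ∈ Q) (h2 : ∀ a ∈ Q, d⁻¹ * a * d ∈ Q)
    (h3 : ∀ w ∈ U, ρ d⁻¹ w ∈ U) (a : H) (ha : CenOn ρ Q U a) : CenOn ρ Q U (d * a * d⁻¹) := by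
  refine ⟨h1 a ha.1, ?_⟩
  intro b hb w hw
  obtain ⟨b', hb'def⟩ : ∃ b' : H, b' = d⁻¹ * b * d := ⟨_, rfl⟩
  have hb' : b' ∈ Q := by rw [hb'def]; exact h2 b hb
  have key := ha.2 b' hb' _ (h3 w hw)
  have e1 : d * a * d⁻¹ * b = d * (a * b') * d⁻¹ := by rw [hb'def]; group
  have e2 : b * (d * a * d⁻¹) = d * (b' * a) * d⁻¹ := by rw [hb'def]; group
  calc ρ (d * a * d⁻¹ * b) w = ρ d (ρ (a * b') (ρ d⁻¹ w)) := by
        rw [e1]; simp only [map_mul, Module.End.mul_apply]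
    _ = ρ d (ρ (b' * a) (ρ d⁻¹ w)) := by rw [key]
    _ = ρ (b * (d * a * d⁻¹)) w := by
        rw [e2]; simp only [map_mul, Module.End.mul_apply]

/-- Package (H2) of S3786. -/
theorem lemPieceComm (hS : LemStab.{u, v, w}) (hL : Cfsg.Agent.Lib.Helper70.HH86.LT.{u, v, w})
    (hQS : LemQS.{u}) (hC : LemCenSub.{u, v, w}) (hF : LemFpfQuot.{u}) :
    LemPieceComm.{u, v, w} := by
  intro p q n _ _ F _ _ _ H _ _ V _ _ _ ρ T Q z W U ctx hpiece t ht t' ht' a ha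
  classical
  have hp : p.Prime := Fact.out
  have hU0 : U ≠ ⊥ := hpiece.1
  have hUQ : ∀ a ∈ Q, U.map (ρ a) ≤ U := hpiece.2.2.1
  have hsc : ∀ a, CenOn ρ Q U a → ∃ s : F, ∀ w ∈ U, ρ a w = s • w := hpiece.2.2.2.1
  haveI : Nontrivial V := by
    obtain ⟨w, -, hw⟩ := Submodule.exists_mem_ne_zero_of_ne_bot ctx.hW0
    exact nontrivial_of_ne w 0 hw
  -- elements of `T` have order dividing `p ^ n`
  have hpow1 : ∀ s ∈ T, s ^ p ^ n = 1 := by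
    intro s hs
    apply ctx.hinj
    rw [map_pow, map_one]
    have h1 : (ρ s - 1) ^ (p ^ n - 1 + 1) = 0 := by
      rw [pow_succ, ctx.hnz s hs, zero_mul]
    rw [Nat.sub_add_cancel (pow_pos hp.pos n),
      Cfsg.Agent.Lib.Helper32.sub_one_pow_char_pow_end p (ρ s) n] at h1
    exact sub_eq_zero.1 h1
  have hfratQ : frat Q ≤ Q := Subgroup.map_subtype_le _
  have hcommfrat : ∀ a ∈ Q, ∀ b ∈ Q, a * b * a⁻¹ * b⁻¹ ∈ frat Q := by
    intro a ha b hb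
    exact Subgroup.mem_map_of_mem Q.subtype
      (Cfsg.Agent.Lib.Helper87.comm_mem_frattini ctx.hQ (⟨a, ha⟩ : ↥Q) ⟨b, hb⟩)
  have hcl2 : ∀ a ∈ Q, ∀ b ∈ Q, ∀ d ∈ Q,
      (a * b * a⁻¹ * b⁻¹) * d = d * (a * b * a⁻¹ * b⁻¹) :=
    fun a ha b hb d hd => ctx.hcent _ (hcommfrat a ha b hb) d hd
  have hTQ' : ∀ b ∈ T, ∀ g ∈ Q, b⁻¹ * g * b ∈ Q := by
    intro b hb g hg
    have h1 := ctx.hTQ b⁻¹ (T.inv_mem hb) g hg
    rwa [inv_inv] at h1
  have hWT' : ∀ b ∈ T, ∀ w ∈ W, ((ρ b - 1) ^ (p ^ n - 1)) w = 0 := by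
    intro b hb w _
    rw [ctx.hnz b hb]
    rfl
  -- the stabilizer data
  have hstabT : ∀ s ∈ T, ∃ j : ℕ, j + 1 ≤ n ∧ U.map (ρ (s ^ p ^ j)) ≤ U ∧
      ∀ w ∈ U, ((ρ (s ^ p ^ j) - 1) ^ (p ^ (n - j) - 1)) w = 0 := fun s hs =>
    hS (p := p) ρ Q W U s n hcl2 (ctx.hTQ s hs) (hTQ' s hs) (ctx.hWT s hs)
      (ctx.hWT s⁻¹ (T.inv_mem hs)) hpiece (hpow1 s hs) (hWT' s hs)
  have hyS : ∀ s ∈ T, s ^ p ^ (n - 1) ∈ Cfsg.Agent.Lib.Helper32.stabSub ρ U := by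
    intro s hs
    obtain ⟨j, hj, hjU, -⟩ := hstabT s hs
    have h1 : s ^ p ^ j ∈ Cfsg.Agent.Lib.Helper32.stabSub ρ U :=
      Cfsg.Agent.Lib.Helper32.mem_stabSub_of_le ρ hjU
    have h2 : s ^ p ^ (n - 1) = (s ^ p ^ j) ^ p ^ (n - j - 1) := by
      rw [← pow_mul, ← pow_add]
      congr 2
      omega
    rw [h2]
    exact Subgroup.pow_mem _ h1 _
  have hzS : z ∈ Cfsg.Agent.Lib.Helper32.stabSub ρ U := by
    have h1 : ypow T (p ^ (n - 1)) ≤ Cfsg.Agent.Lib.Helper32.stabSub ρ U := by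
      unfold ypow
      rw [Subgroup.closure_le]
      rintro _ ⟨s, hs, rfl⟩
      exact hyS s hs
    exact h1 ctx.hzY
  have hinvU : ∀ d ∈ Cfsg.Agent.Lib.Helper32.stabSub ρ U, ∀ w ∈ U, ρ d w ∈ U := by
    intro d hd w hw
    have h1 := hd
    rw [Cfsg.Agent.Lib.Helper32.mem_stabSub] at h1
    rw [← h1]
    exact Submodule.mem_map_of_mem hw
  -- the subgroups `D` and `N = Cen(U)`
  obtain ⟨D, hDdef⟩ : ∃ D : Subgroup H, D = T ⊓ Cfsg.Agent.Lib.Helper32.stabSub ρ U := ⟨_, rfl⟩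
  have hDT : D ≤ T := by rw [hDdef]; exact inf_le_left
  have hDS : D ≤ Cfsg.Agent.Lib.Helper32.stabSub ρ U := by rw [hDdef]; exact inf_le_right
  have hDmem : ∀ d, d ∈ T → d ∈ Cfsg.Agent.Lib.Helper32.stabSub ρ U → d ∈ D := by
    intro d h1 h2
    rw [hDdef]
    exact ⟨h1, h2⟩
  have hDp : IsPGroup p D := ctx.hT.to_le hDT
  obtain ⟨N, hN⟩ := hC ρ Q U hUQ
  have hNQ : N ≤ Q := fun a ha => ((hN a).1 ha).1
  have hfratN : frat Q ≤ N := by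
    intro c hc
    rw [hN]
    exact ⟨hfratQ hc, fun b hb w _ => by rw [ctx.hcent c hc b hb]⟩
  have hDN : ∀ d ∈ D, ∀ a ∈ N, d * a * d⁻¹ ∈ N := by
    intro d hd a ha
    rw [hN] at ha ⊢
    exact cenOn_conj ρ Q U d (ctx.hTQ d (hDT hd)) (hTQ' d (hDT hd))
      (hinvU d⁻¹ (Subgroup.inv_mem _ (hDS hd))) a ha
  have hzD : z ∈ D := hDmem z ctx.hzT hzS
  have hfpf := hF (p := p) (q := q) Q N z ctx.hqp ctx.hQ (ctx.hTQ z ctx.hzT) hfratN hNQ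
    (hDN z hzD) ctx.hzfpf ctx.hzp
  -- the local theorem for the elements of `T`
  have hLT : ∀ s ∈ T, ∃ i : ℕ, ∀ a ∈ Q, rel (s ^ p ^ (n - 1)) (z ^ i) a ∈ N := by
    intro s hs
    obtain ⟨j, hj, hjU, hjn⟩ := hstabT s hs
    have hxT : s ^ p ^ j ∈ T := T.pow_mem hs _
    have hxk : (s ^ p ^ j) ^ p ^ (n - j) = 1 := by
      rw [← pow_mul, ← pow_add]
      have h1 : j + (n - j) = n := by omega
      rw [h1]
      exact hpow1 s hs
    obtain ⟨i, hi⟩ := hL (p := p) (q := q) ρ Q U (s ^ p ^ j) z (n - j) ctx.hqp ctx.hQ ctx.hcent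
      hU0 hUQ hsc (ctx.hTQ _ hxT) hjU (by omega) hxk hjn (ctx.hTQ z ctx.hzT)
      (le_of_eq ((Cfsg.Agent.Lib.Helper32.mem_stabSub ρ).1 hzS)) ctx.hzfpf ctx.hzp
      (ctx.hzcen _ hxT)
    refine ⟨i, fun a ha => ?_⟩
    have h2 : (s ^ p ^ j) ^ p ^ (n - j - 1) = s ^ p ^ (n - 1) := by
      rw [← pow_mul, ← pow_add]
      congr 2
      omega
    have h3 := hi a ha
    rw [h2] at h3
    exact (hN _).2 h3
  obtain ⟨i₁, h₁⟩ := hLT t ht
  obtain ⟨i₂, h₂⟩ := hLT t' ht'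
  have hcop : (Nat.card Q).Coprime p := by
    obtain ⟨m, hm⟩ := IsPGroup.iff_card.1 ctx.hQ
    rw [hm]
    exact Nat.Coprime.pow_left m ((Nat.coprime_primes Fact.out hp).2 ctx.hqp)
  have hfin := hQS (p := p) D Q N z (t ^ p ^ (n - 1)) (t' ^ p ^ (n - 1)) i₁ i₂ ctx.hp2 hDp hcop
    hNQ (fun a ha b hb => hfratN (hcommfrat a ha b hb))
    (fun d hd a ha => ctx.hTQ d (hDT hd) a ha) hDN hzD
    (hDmem _ (T.pow_mem ht _) (hyS t ht)) (hDmem _ (T.pow_mem ht' _) (hyS t' ht'))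
    (fun d hd a ha => hfratN (ctx.hzcen d (hDT hd) a ha))
    hfpf (fun a ha => hfratN (ctx.hzp a ha)) h₁ h₂ a ha
  exact (hN _).1 hfin

end Cfsg.Agent.Lib.Helper57.HH86
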